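import Mathlib
import Cfsg.Agent.Lib.Helper60.U64.Defs

/-!
# Project U64 (statement S6001), package [DTV]

An element `y` of odd order of the normalizer of `R` cannot have `y - 1` of rank one.

Proof.  For `a ∈ R` put `w(a) = y a y⁻¹ a⁻¹ ∈ R`; `w(a) - 1` has rank at most `2`, so
`w(a) ^ 2 ≠ -1`, which forces `y a y⁻¹` to commute with `a`.  Polarizing, the commutation sign
satisfies `σ(φ b, a) = σ(b, φ a)` (`φ` = conjugation by `y`), hence `σ(φ² b, a) = σ(b, a)`, and as
`y` has odd order `σ(φ b, a) = σ(b, a)`: `w(b)` commutes with `R`, so it is a scalar, of rank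
`≤ 2` after subtracting one: `w(b) = 1`.  So `y` commutes with `R` and is a scalar.
-/

set_option autoImplicit false

namespace Cfsg.Agent.Lib.Helper47.U64

open Matrix
open Cfsg.Agent.Lib.Helper60.U64

universe u

theorem dtv_rank_sub_le {F : Type u} [Field F] (A B : M4 F) :
    (A - B).rank ≤ A.rank + B.rank := by
  unfold Matrix.rank
  have hle : LinearMap.range (A - B).mulVecLin ≤
      LinearMap.range A.mulVecLin ⊔ LinearMap.range B.mulVecLin := by
    rintro _ ⟨v, rfl⟩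
    rw [Matrix.mulVecLin_apply, Matrix.sub_mulVec]
    exact Submodule.sub_mem _ (Submodule.mem_sup_left ⟨v, rfl⟩)
      (Submodule.mem_sup_right ⟨v, rfl⟩)
  exact le_trans (Submodule.finrank_mono hle)
    (Submodule.finrank_add_le_finrank_add_finrank _ _)

theorem dtv_full {F : Type u} [Field F] (A X : M4 F) (h : A * X = 1) : 4 ≤ A.rank := by
  have h1 : (1 : M4 F).rank ≤ A.rank := by
    rw [← h]
    exact Matrix.rank_mul_le_left _ _
  rw [Matrix.rank_one, Fintype.card_fin] at h1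
  exact h1

theorem dtv_sq_neg {F : Type u} [Field F] (h2 : (2 : F) ≠ 0) (K : M4 F) (hK : K * K = -1) :
    4 ≤ (K - 1).rank := by
  apply dtv_full (K - 1) ((-(2 : F)⁻¹) • (K + 1))
  rw [Matrix.mul_smul]
  have h1 : (K - 1) * (K + 1) = (-2 : F) • (1 : M4 F) := by
    rw [sub_mul, mul_add, mul_add, hK, mul_one, one_mul, one_mul, neg_smul, two_smul]
    abel
  rw [h1, smul_smul]
  have h3 : (-(2 : F)⁻¹) * (-2) = 1 := by field_simp
  rw [h3, one_smul]

theorem dtv_rank_comm {F : Type u} [Field F] (t g : GL (Fin 4) F)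
    (hrank : ((t : M4 F) - 1).rank ≤ 1) :
    (((t * g * t⁻¹ * g⁻¹ : GL (Fin 4) F) : M4 F) - 1).rank ≤ 2 := by
  have hk2 : ((t * g * t⁻¹ * g⁻¹ : GL (Fin 4) F) : M4 F) - 1 =
      (((t : M4 F) - 1) * (g : M4 F) - (g : M4 F) * ((t : M4 F) - 1)) *
        ((t⁻¹ * g⁻¹ : GL (Fin 4) F) : M4 F) := by
    have e1 : (t : M4 F) * (g : M4 F) * ((t⁻¹ * g⁻¹ : GL (Fin 4) F) : M4 F) =
        ((t * g * t⁻¹ * g⁻¹ : GL (Fin 4) F) : M4 F) := by
      rw [← Units.val_mul, ← Units.val_mul]
      congr 1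
      group
    have e2 : (g : M4 F) * (t : M4 F) * ((t⁻¹ * g⁻¹ : GL (Fin 4) F) : M4 F) = 1 := by
      rw [← Units.val_mul, ← Units.val_mul]
      have h' : g * t * (t⁻¹ * g⁻¹) = 1 := by group
      rw [h', Units.val_one]
    have e3 : ((t : M4 F) - 1) * (g : M4 F) - (g : M4 F) * ((t : M4 F) - 1) =
        (t : M4 F) * (g : M4 F) - (g : M4 F) * (t : M4 F) := by
      rw [sub_mul, mul_sub, one_mul, mul_one]
      abel
    rw [e3, sub_mul, e1, e2]
  rw [hk2]
  refine le_trans (Matrix.rank_mul_le_left _ _) ?_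
  have hA : (((t : M4 F) - 1) * (g : M4 F)).rank ≤ 1 :=
    le_trans (Matrix.rank_mul_le_left _ _) hrank
  have hB : ((g : M4 F) * ((t : M4 F) - 1)).rank ≤ 1 :=
    le_trans (Matrix.rank_mul_le_right _ _) hrank
  have hsub := dtv_rank_sub_le (((t : M4 F) - 1) * (g : M4 F))
    ((g : M4 F) * ((t : M4 F) - 1))
  omega

/-- The commutation sign. -/
noncomputable def sg {F : Type u} [Field F] (x z : GL (Fin 4) F) : F :=
  @ite F (x * z = z * x) (Classical.propDecidable _) 1 (-1)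

theorem sg_spec {F : Type u} [Field F] (R : Subgroup (GL (Fin 4) F)) (hPM : IsPM R)
    (x z : GL (Fin 4) F) (hx : x ∈ R) (hz : z ∈ R) :
    (x : M4 F) * (z : M4 F) = sg x z • ((z : M4 F) * (x : M4 F)) := by
  unfold sg
  by_cases h : x * z = z * x
  · rw [if_pos h, one_smul, ← Units.val_mul, ← Units.val_mul, h]
  · rw [if_neg h, neg_smul, one_smul]
    rcases hPM.1 x hx z hz with h' | h'
    · exact absurd (Units.ext (by rw [Units.val_mul, Units.val_mul, h'])) h
    · exact h'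

theorem sg_sq {F : Type u} [Field F] (x z : GL (Fin 4) F) : sg x z * sg x z = 1 := by
  unfold sg
  by_cases h : x * z = z * x
  · rw [if_pos h, mul_one]
  · rw [if_neg h]
    ring

theorem sg_eq_one_iff {F : Type u} [Field F] (h2 : (2 : F) ≠ 0) (x z : GL (Fin 4) F) :
    sg x z = 1 ↔ x * z = z * x := by
  unfold sg
  by_cases h : x * z = z * x
  · rw [if_pos h]
    exact ⟨fun _ => h, fun _ => rfl⟩
  · rw [if_neg h]
    constructor
    · intro h1
      exfalso
      apply h2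
      linear_combination -h1
    · intro h'
      exact absurd h' h

theorem sg_conj {F : Type u} [Field F] (y x z : GL (Fin 4) F) :
    sg (y * x * y⁻¹) (y * z * y⁻¹) = sg x z := by
  have hiff : (y * x * y⁻¹) * (y * z * y⁻¹) = (y * z * y⁻¹) * (y * x * y⁻¹) ↔ x * z = z * x := by
    constructor
    · intro h
      have h1 : y * (x * z) * y⁻¹ = y * (z * x) * y⁻¹ := by
        calc y * (x * z) * y⁻¹ = (y * x * y⁻¹) * (y * z * y⁻¹) := by group
          _ = (y * z * y⁻¹) * (y * x * y⁻¹) := h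
          _ = y * (z * x) * y⁻¹ := by group
      exact mul_left_cancel (mul_right_cancel h1)
    · intro h
      calc (y * x * y⁻¹) * (y * z * y⁻¹) = y * (x * z) * y⁻¹ := by group
        _ = y * (z * x) * y⁻¹ := by rw [h]
        _ = (y * z * y⁻¹) * (y * x * y⁻¹) := by group
  unfold sg
  by_cases h : x * z = z * x
  · rw [if_pos h, if_pos (hiff.2 h)]
  · rw [if_neg h, if_neg (fun h' => h (hiff.1 h'))]

theorem smul_unit_cancel {F : Type u} [Field F] (g : GL (Fin 4) F) (c c' : F)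
    (h : c • (g : M4 F) = c' • (g : M4 F)) : c = c' := by
  have h1 : c • (1 : M4 F) = c' • (1 : M4 F) := by
    have := congrArg (fun M => M * ((g⁻¹ : GL (Fin 4) F) : M4 F)) h
    simp only [Matrix.smul_mul, ← Units.val_mul, mul_inv_cancel, Units.val_one] at this
    exact this
  have h00 := congrFun (congrFun h1 0) 0
  simpa using h00

theorem dtv_m1 {F : Type u} [Field F] (A A' Ai : M4 F) (h1 : A * Ai = 1) (h2 : Ai * A = 1)
    (h : A' * A = -(A * A')) : Ai * A' = -(A' * Ai) := by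
  calc Ai * A' = Ai * (A' * A) * Ai := by
        rw [mul_assoc, mul_assoc, h1, mul_one]
    _ = -(A' * Ai) := by
        rw [h, mul_neg, neg_mul, ← mul_assoc, h2, one_mul]

theorem dtv_m2 {F : Type u} [Field F] (A A' Ai : M4 F) (h1 : A * Ai = 1) (h2 : Ai * A = 1)
    (h : A' * A = -(A * A')) (hsq : A' * A' = A * A) : (A' * Ai) * (A' * Ai) = -1 := by
  have hanti := dtv_m1 A A' Ai h1 h2 h
  calc (A' * Ai) * (A' * Ai) = A' * (Ai * A') * Ai := by simp only [mul_assoc]
    _ = -((A' * A') * (Ai * Ai)) := by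
        rw [hanti]
        simp only [mul_neg, neg_mul, mul_assoc]
    _ = -1 := by
        rw [hsq]
        have e : A * A * (Ai * Ai) = 1 := by
          rw [mul_assoc, ← mul_assoc A Ai, h1, one_mul, h1]
        rw [e]

theorem dtv_m3 {F : Type u} [Field F] (A B Bi : M4 F) (σ : F) (hσ : σ * σ = 1)
    (h1 : B * Bi = 1) (h2 : Bi * B = 1) (h : B * A = σ • (A * B)) :
    Bi * A = σ • (A * Bi) := by
  have e : A * Bi = σ • (Bi * A) := by
    calc A * Bi = Bi * (B * A) * Bi := by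
          rw [← mul_assoc, h2, one_mul]
      _ = σ • (Bi * A) := by
          rw [h, Matrix.mul_smul, Matrix.smul_mul, mul_assoc, mul_assoc, h1, mul_one]
  rw [e, smul_smul, hσ, one_smul]

theorem dtv_m4 {F : Type u} [Field F] (A B' Bi : M4 F) (σ : F) (hσ : σ * σ = 1)
    (h : B' * A = σ • (A * B')) (h' : Bi * A = σ • (A * Bi)) :
    (B' * Bi) * A = A * (B' * Bi) := by
  rw [mul_assoc, h', Matrix.mul_smul, ← mul_assoc, h, Matrix.smul_mul, smul_smul, hσ, one_smul,
    mul_assoc]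

/-- [DTV] -/
theorem pkgDTV : PkgDTV.{u} := by
  intro F _ R hPM hSC hcard hZ h2 y q hy hq hyq hrank
  classical
  have hφ : ∀ a ∈ R, y * a * y⁻¹ ∈ R := fun a ha => (Subgroup.mem_normalizer_iff.1 hy a).1 ha
  have hrk : ∀ g : GL (Fin 4) F, (((y * g * y⁻¹ * g⁻¹ : GL (Fin 4) F) : M4 F) - 1).rank ≤ 2 :=
    fun g => dtv_rank_comm y g (le_of_eq hrank)
  -- S1 : `y a y⁻¹` commutes with `a`
  have hS1 : ∀ a ∈ R, sg (y * a * y⁻¹) a = 1 := by
    intro a ha
    by_contra hne
    have hspec := sg_spec R hPM _ _ (hφ a ha) ha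
    have hm1 : sg (y * a * y⁻¹) a = -1 := by
      unfold sg at hne ⊢
      by_cases h : y * a * y⁻¹ * a = a * (y * a * y⁻¹)
      · rw [if_pos h] at hne
        exact absurd rfl hne
      · rw [if_neg h]
    rw [hm1, neg_smul, one_smul] at hspec
    have hAAi : (a : M4 F) * ((a⁻¹ : GL (Fin 4) F) : M4 F) = 1 := by
      rw [← Units.val_mul, mul_inv_cancel, Units.val_one]
    have hAiA : ((a⁻¹ : GL (Fin 4) F) : M4 F) * (a : M4 F) = 1 := by
      rw [← Units.val_mul, inv_mul_cancel, Units.val_one]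
    have hsq' : ((y * a * y⁻¹ : GL (Fin 4) F) : M4 F) * ((y * a * y⁻¹ : GL (Fin 4) F) : M4 F)
        = (a : M4 F) * (a : M4 F) := by
      have e : ((y * a * y⁻¹ : GL (Fin 4) F) : M4 F) * ((y * a * y⁻¹ : GL (Fin 4) F) : M4 F)
          = (y : M4 F) * ((a : M4 F) * (a : M4 F)) * ((y⁻¹ : GL (Fin 4) F) : M4 F) := by
        rw [← Units.val_mul, ← Units.val_mul, ← Units.val_mul, ← Units.val_mul]
        congr 1
        group
      rw [e]
      rcases hPM.2 a ha with hE | hE
      · rw [hE, mul_one, ← Units.val_mul, mul_inv_cancel, Units.val_one]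
      · rw [hE, mul_neg, mul_one, neg_mul, ← Units.val_mul, mul_inv_cancel, Units.val_one]
    have hw : ((y * a * y⁻¹ * a⁻¹ : GL (Fin 4) F) : M4 F) *
        ((y * a * y⁻¹ * a⁻¹ : GL (Fin 4) F) : M4 F) = -1 := by
      rw [Units.val_mul (y * a * y⁻¹) a⁻¹]
      exact dtv_m2 _ _ _ hAAi hAiA hspec hsq'
    have h4 := dtv_sq_neg h2 _ hw
    have h5 := hrk a
    omega
  -- S2 : polarization
  have hS2 : ∀ a ∈ R, ∀ b ∈ R, sg (y * b * y⁻¹) a = sg b (y * a * y⁻¹) := by
    intro a ha b hb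
    have ha' := hφ a ha
    have hb' := hφ b hb
    have h_a := (sg_eq_one_iff h2 _ _).1 (hS1 a ha)
    have h_b := (sg_eq_one_iff h2 _ _).1 (hS1 b hb)
    have h_ab := (sg_eq_one_iff h2 _ _).1 (hS1 (a * b) (R.mul_mem ha hb))
    have e1 := sg_spec R hPM _ _ hb' ha
    have e2 := sg_spec R hPM _ _ hb ha'
    apply smul_unit_cancel (y * a * y⁻¹ * a * (y * b * y⁻¹) * b)
    have L : ((y * (a * b) * y⁻¹ * (a * b) : GL (Fin 4) F) : M4 F) = sg (y * b * y⁻¹) a •
        ((y * a * y⁻¹ * a * (y * b * y⁻¹) * b : GL (Fin 4) F) : M4 F) := by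
      have e : y * (a * b) * y⁻¹ * (a * b) = (y * a * y⁻¹) * ((y * b * y⁻¹) * a) * b := by group
      rw [e, Units.val_mul, Units.val_mul, Units.val_mul (y * b * y⁻¹) a, e1,
        Units.val_mul _ b, Units.val_mul _ (y * b * y⁻¹), Units.val_mul _ a]
      simp only [Matrix.mul_smul, Matrix.smul_mul, mul_assoc]
    have Rr : (((a * b) * (y * (a * b) * y⁻¹) : GL (Fin 4) F) : M4 F) = sg b (y * a * y⁻¹) •
        ((y * a * y⁻¹ * a * (y * b * y⁻¹) * b : GL (Fin 4) F) : M4 F) := by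
      have e : (a * b) * (y * (a * b) * y⁻¹) = a * (b * (y * a * y⁻¹)) * (y * b * y⁻¹) := by group
      rw [e, Units.val_mul, Units.val_mul, Units.val_mul b, e2]
      have h3 : (a : M4 F) * (((y * a * y⁻¹ : GL (Fin 4) F) : M4 F) * (b : M4 F)) *
          ((y * b * y⁻¹ : GL (Fin 4) F) : M4 F)
          = ((y * a * y⁻¹ * a * (y * b * y⁻¹) * b : GL (Fin 4) F) : M4 F) := by
        rw [← Units.val_mul, ← Units.val_mul, ← Units.val_mul]
        congr 1
        calc a * (y * a * y⁻¹ * b) * (y * b * y⁻¹)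
            = (a * (y * a * y⁻¹)) * (b * (y * b * y⁻¹)) := by group
          _ = ((y * a * y⁻¹) * a) * ((y * b * y⁻¹) * b) := by rw [← h_a, ← h_b]
          _ = y * a * y⁻¹ * a * (y * b * y⁻¹) * b := by group
      rw [Matrix.mul_smul, Matrix.smul_mul, h3]
    rw [← L, ← Rr, h_ab]
  have hS4 : ∀ a ∈ R, ∀ b ∈ R, sg (y * (y * b * y⁻¹) * y⁻¹) a = sg b a := by
    intro a ha b hb
    rw [hS2 a ha _ (hφ b hb), sg_conj]
  have hpow : ∀ k : ℕ, ∀ b ∈ R, y ^ k * b * (y ^ k)⁻¹ ∈ R := by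
    intro k b hb
    exact (Subgroup.mem_normalizer_iff.1
      ((Subgroup.normalizer (R : Set (GL (Fin 4) F))).pow_mem hy k) b).1 hb
  have hS5 : ∀ k : ℕ, ∀ a ∈ R, ∀ b ∈ R,
      sg (y ^ (2 * k) * b * (y ^ (2 * k))⁻¹) a = sg b a := by
    intro k
    induction k with
    | zero =>
      intro a ha b hb
      simp
    | succ k ih =>
      intro a ha b hb
      have e : y ^ (2 * (k + 1)) * b * (y ^ (2 * (k + 1)))⁻¹
          = y * (y * (y ^ (2 * k) * b * (y ^ (2 * k))⁻¹) * y⁻¹) * y⁻¹ := by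
        have e' : 2 * (k + 1) = 2 * k + 1 + 1 := by ring
        rw [e', pow_succ', pow_succ']
        group
      rw [e, hS4 a ha _ (hpow (2 * k) b hb), ih a ha b hb]
  have hS6 : ∀ a ∈ R, ∀ b ∈ R, sg (y * b * y⁻¹) a = sg b a := by
    intro a ha b hb
    obtain ⟨m, hm⟩ := hq
    have e : y ^ (2 * (m + 1)) = y := by
      have e' : 2 * (m + 1) = q + 1 := by omega
      rw [e', pow_succ, hyq, one_mul]
    have h := hS5 (m + 1) a ha b hb
    rwa [e] at h
  have hcomm : ∀ b ∈ R, y * b = b * y := by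
    intro b hb
    obtain ⟨ε, hε⟩ := hSC ((y * b * y⁻¹ * b⁻¹ : GL (Fin 4) F) : M4 F) (by
      intro a ha
      have e1 := sg_spec R hPM _ _ (hφ b hb) ha
      have e2 := sg_spec R hPM _ _ hb ha
      rw [hS6 a ha b hb] at e1
      have hσ := sg_sq b a
      have hBBi : (b : M4 F) * ((b⁻¹ : GL (Fin 4) F) : M4 F) = 1 := by
        rw [← Units.val_mul, mul_inv_cancel, Units.val_one]
      have hBiB : ((b⁻¹ : GL (Fin 4) F) : M4 F) * (b : M4 F) = 1 := by
        rw [← Units.val_mul, inv_mul_cancel, Units.val_one]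
      have e3 := dtv_m3 _ _ _ _ hσ hBBi hBiB e2
      rw [Units.val_mul (y * b * y⁻¹) b⁻¹]
      exact dtv_m4 _ _ _ _ hσ e1 e3)
    have hε1 : ε = 1 := by
      by_contra hne
      have hfull := dtv_full (((y * b * y⁻¹ * b⁻¹ : GL (Fin 4) F) : M4 F) - 1)
        ((ε - 1)⁻¹ • (1 : M4 F)) (by
          rw [hε]
          have e : ε • (1 : M4 F) - 1 = (ε - 1) • (1 : M4 F) := by rw [sub_smul, one_smul]
          rw [e, Matrix.smul_mul, one_mul, smul_smul, mul_inv_cancel₀ (sub_ne_zero.2 hne),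
            one_smul])
      have h5 := hrk b
      omega
    have h1 : y * b * y⁻¹ * b⁻¹ = 1 := Units.ext (by rw [hε, hε1, one_smul, Units.val_one])
    calc y * b = (y * b * y⁻¹ * b⁻¹) * b * y := by group
      _ = b * y := by rw [h1, one_mul]
  obtain ⟨c, hc⟩ := hSC (y : M4 F) (fun s hs => by
    rw [← Units.val_mul, ← Units.val_mul, hcomm s hs])
  by_cases hc1 : c = 1
  · rw [hc, hc1, one_smul, sub_self, Matrix.rank_zero] at hrank
    exact absurd hrank (by norm_num)
  · have hfull := dtv_full ((y : M4 F) - 1) ((c - 1)⁻¹ • (1 : M4 F)) (by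
      rw [hc]
      have e : c • (1 : M4 F) - 1 = (c - 1) • (1 : M4 F) := by rw [sub_smul, one_smul]
      rw [e, Matrix.smul_mul, one_mul, smul_smul, mul_inv_cancel₀ (sub_ne_zero.2 hc1), one_smul])
    omega

end Cfsg.Agent.Lib.Helper47.U64
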