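import Mathlib
import Cfsg.Agent.Lib.Helper60.U64.Defs

/-!
# Project U64 (statement S6001), package [TR]: the trace formula

For `y` in the normalizer of `R` with `y ^ r` scalar (`r` an odd prime),
`4 * tr y * tr y⁻¹ = |C_R(y)|` in `F`.
-/

set_option autoImplicit false

namespace Cfsg.Agent.Lib.Helper47.U64

open Matrix
open Cfsg.Agent.Lib.Helper60.U64

universe u

/-- A non-scalar element of `R` has trace `0`. -/
theorem tr_zero_of_not_scal {F : Type u} [Field F] (R : Subgroup (GL (Fin 4) F))
    (hPM : IsPM R) (hSC : ScalComm R) (h2 : (2 : F) ≠ 0) (x : GL (Fin 4) F) (hx : x ∈ R)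
    (hns : ∀ c : F, (x : M4 F) ≠ c • (1 : M4 F)) : (x : M4 F).trace = 0 := by
  by_cases hall : ∀ s ∈ R, (x : M4 F) * (s : M4 F) = (s : M4 F) * (x : M4 F)
  · obtain ⟨c, hc⟩ := hSC (x : M4 F) hall
    exact absurd hc (hns c)
  · push Not at hall
    obtain ⟨s, hs, hne⟩ := hall
    rcases hPM.1 x hx s hs with h | h
    · exact absurd h hne
    · have h1 : (x : M4 F) = -((s : M4 F) * (x : M4 F) * ((s⁻¹ : GL (Fin 4) F) : M4 F)) := by
        rw [← neg_mul, ← h, mul_assoc, ← Units.val_mul, mul_inv_cancel, Units.val_one, mul_one]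
      have h3 : ((s : M4 F) * (x : M4 F) * ((s⁻¹ : GL (Fin 4) F) : M4 F)).trace
          = (x : M4 F).trace := by
        rw [Matrix.trace_mul_cycle, ← Units.val_mul, inv_mul_cancel, Units.val_one, one_mul]
      have h4 : (x : M4 F).trace = -(x : M4 F).trace := by
        conv_lhs => rw [h1]
        rw [Matrix.trace_neg, h3]
      have h5 : (2 : F) * (x : M4 F).trace = 0 := by linear_combination h4
      rcases mul_eq_zero.1 h5 with h6 | h6
      · exact absurd h6 h2
      · exact h6

/-- A scalar `ε • 1` in `R` satisfies `ε ^ 4 = 1`. -/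
theorem scal_pow_four {F : Type u} [Field F] (R : Subgroup (GL (Fin 4) F))
    (hPM : IsPM R) (x : GL (Fin 4) F) (hx : x ∈ R) (ε : F)
    (hε : (x : M4 F) = ε • (1 : M4 F)) : ε ^ 4 = 1 := by
  have hsq : (x : M4 F) * (x : M4 F) = (ε * ε) • (1 : M4 F) := by
    rw [hε, Matrix.smul_mul, Matrix.mul_smul, mul_one, smul_smul]
  rcases hPM.2 x hx with h | h
  · rw [hsq] at h
    have h00 := congrFun (congrFun h 0) 0
    simp only [Matrix.smul_apply, Matrix.one_apply_eq, smul_eq_mul, mul_one] at h00
    calc ε ^ 4 = (ε * ε) * (ε * ε) := by ring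
      _ = 1 := by rw [h00, mul_one]
  · rw [hsq] at h
    have h00 := congrFun (congrFun h 0) 0
    simp only [Matrix.smul_apply, Matrix.one_apply_eq, smul_eq_mul, mul_one, Matrix.neg_apply]
      at h00
    calc ε ^ 4 = (ε * ε) * (ε * ε) := by ring
      _ = 1 := by rw [h00]; ring

/-- If `y⁻¹ s y s⁻¹ = ε • 1` and `y ^ r` is scalar, then `ε ^ r = 1`. -/
theorem scal_pow_r {F : Type u} [Field F] (y s : GL (Fin 4) F) (r : ℕ) (z ε : F)
    (hz : ((y ^ r : GL (Fin 4) F) : M4 F) = z • (1 : M4 F))
    (hε : ((y⁻¹ * s * y * s⁻¹ : GL (Fin 4) F) : M4 F) = ε • (1 : M4 F)) : ε ^ r = 1 := by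
  have h1 : ((y⁻¹ * s * y : GL (Fin 4) F) : M4 F) = ε • (s : M4 F) := by
    have e : (y⁻¹ * s * y : GL (Fin 4) F) = (y⁻¹ * s * y * s⁻¹) * s := by group
    rw [e, Units.val_mul, hε, Matrix.smul_mul, one_mul]
  have h2 : ∀ k : ℕ, (((y⁻¹) ^ k * s * y ^ k : GL (Fin 4) F) : M4 F) = ε ^ k • (s : M4 F) := by
    intro k
    induction k with
    | zero => simp
    | succ k ih =>
      have e : ((y⁻¹) ^ (k + 1) * s * y ^ (k + 1) : GL (Fin 4) F)
          = y⁻¹ * ((y⁻¹) ^ k * s * y ^ k) * y := by
        rw [pow_succ', pow_succ]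
        group
      rw [e, Units.val_mul, Units.val_mul, ih, Matrix.mul_smul, Matrix.smul_mul,
        ← Units.val_mul, ← Units.val_mul, h1, smul_smul, pow_succ]
  have h3 : ((y⁻¹) ^ r * s * y ^ r : GL (Fin 4) F) = s := by
    have hc : y ^ r * s = s * y ^ r := by
      apply Units.ext
      rw [Units.val_mul, Units.val_mul, hz, Matrix.smul_mul, Matrix.mul_smul, one_mul, mul_one]
    rw [inv_pow, mul_assoc, ← hc, ← mul_assoc, inv_mul_cancel, one_mul]
  have h4 := h2 r
  rw [h3] at h4
  have h00 : ∀ i j, (s : M4 F) i j = ε ^ r * (s : M4 F) i j := by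
    intro i j
    have := congrFun (congrFun h4 i) j
    simpa [Matrix.smul_apply] using this
  by_contra hne
  have hzero : (s : M4 F) = 0 := by
    ext i j
    have h5 := h00 i j
    have h6 : (ε ^ r - 1) * (s : M4 F) i j = 0 := by linear_combination -h5
    rcases mul_eq_zero.1 h6 with h7 | h7
    · exact absurd (sub_eq_zero.1 h7) hne
    · simpa using h7
  have hdet : IsUnit (s : M4 F).det := by
    have := (Matrix.isUnit_iff_isUnit_det (s : M4 F)).1 s.isUnit
    exact this
  rw [hzero, Matrix.det_zero] at hdet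
  exact not_isUnit_zero hdet

/-- [TR] -/
theorem pkgTR : PkgTR.{u} := by
  intro F _ R hPM hSC hcard hZ h2 y r hy hr hr2 hz
  obtain ⟨z, hz⟩ := hz
  classical
  have : Finite R := Nat.finite_of_card_ne_zero (by rw [hcard]; norm_num)
  let _ : Fintype R := Fintype.ofFinite R
  have h4 : (4 : F) ≠ 0 := by
    have : (4 : F) = 2 * 2 := by norm_num
    rw [this]
    exact mul_ne_zero h2 h2
  let C : Subgroup R := (Subgroup.centralizer {y}).subgroupOf R
  have hCmem : ∀ s : R, s ∈ C ↔ (s : GL (Fin 4) F) * y = y * (s : GL (Fin 4) F) := by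
    intro s
    rw [Subgroup.mem_subgroupOf, Subgroup.mem_centralizer_iff]
    constructor
    · intro h
      exact (h y (Set.mem_singleton y)).symm
    · intro h g hg
      rw [Set.mem_singleton_iff.1 hg]
      exact h.symm
  -- scalars commute with everything
  have hscal_comm : ∀ (s : GL (Fin 4) F) (c : F), (s : M4 F) = c • (1 : M4 F) →
      ∀ g : GL (Fin 4) F, s * g = g * s := by
    intro s c hc g
    apply Units.ext
    rw [Units.val_mul, Units.val_mul, hc, Matrix.smul_mul, Matrix.mul_smul, one_mul, mul_one]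
  refine ⟨Nat.card C, ?_, ?_, ?_, ?_, ?_⟩
  · rw [← hcard]
    exact Subgroup.card_subgroup_dvd_card C
  · have hle : Subgroup.center R ≤ C := by
      intro s hs
      rw [Subgroup.mem_center_iff] at hs
      obtain ⟨c, hc⟩ := hSC ((s : GL (Fin 4) F) : M4 F) (fun t ht => by
        have := hs ⟨t, ht⟩
        have h' := congrArg (fun w : R => ((w : GL (Fin 4) F) : M4 F)) this
        simp only [Subgroup.coe_mul, Units.val_mul] at h'
        exact h'.symm)
      rw [hCmem]
      exact hscal_comm _ c hc y
    have hdvd := Subgroup.card_dvd_of_le hle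
    rwa [hZ] at hdvd
  · -- fixed point count
    have : Fact r.Prime := ⟨hr⟩
    let f : Function.End R := fun s =>
      ⟨y * (s : GL (Fin 4) F) * y⁻¹, (Subgroup.mem_normalizer_iff.1 hy _).1 s.2⟩
    have hfk : ∀ (k : ℕ) (s : R), (((f ^ k) s : R) : GL (Fin 4) F)
        = y ^ k * (s : GL (Fin 4) F) * (y ^ k)⁻¹ := by
      intro k
      induction k with
      | zero =>
        intro s
        rw [pow_zero, pow_zero, inv_one, mul_one, one_mul]
        rfl
      | succ k ih =>
        intro s
        rw [pow_succ']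
        change y * (((f ^ k) s : R) : GL (Fin 4) F) * y⁻¹ = _
        rw [ih s, pow_succ']
        group
    have hf : f ^ r ^ 1 = 1 := by
      rw [pow_one]
      funext s
      apply Subtype.ext
      rw [hfk]
      have hc : y ^ r * (s : GL (Fin 4) F) = (s : GL (Fin 4) F) * y ^ r :=
        hscal_comm _ z hz _
      rw [hc, mul_assoc, mul_inv_cancel, mul_one]
      rfl
    have hmod := Equiv.Perm.card_fixedPoints_modEq (f := f) (p := r) (n := 1) hf
    have hfix : Fintype.card (Function.fixedPoints f) = Nat.card C := by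
      rw [← Nat.card_eq_fintype_card]
      apply Nat.card_congr
      apply Equiv.subtypeEquivRight
      intro s
      rw [hCmem]
      change f s = s ↔ _
      constructor
      · intro h
        have h' := congrArg (fun w : R => (w : GL (Fin 4) F)) h
        change y * (s : GL (Fin 4) F) * y⁻¹ = (s : GL (Fin 4) F) at h'
        calc (s : GL (Fin 4) F) * y = (y * (s : GL (Fin 4) F) * y⁻¹) * y := by rw [h']
          _ = y * (s : GL (Fin 4) F) := by group
      · intro h
        apply Subtype.ext
        change y * (s : GL (Fin 4) F) * y⁻¹ = (s : GL (Fin 4) F)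
        rw [← h]
        group
    rw [hfix, ← Nat.card_eq_fintype_card, hcard] at hmod
    have hle : Nat.card C ≤ 64 := by
      have := Subgroup.card_subgroup_dvd_card C
      rw [hcard] at this
      exact Nat.le_of_dvd (by norm_num) this
    exact (Nat.modEq_iff_dvd' hle).1 hmod.symm
  · intro hn
    have htop : C = ⊤ := by
      apply (Subgroup.card_eq_iff_eq_top C).1
      rw [hn, hcard]
    apply hSC
    intro s hs
    have hsC : (⟨s, hs⟩ : R) ∈ C := by rw [htop]; exact Subgroup.mem_top _
    rw [hCmem] at hsC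
    have := congrArg (fun w : GL (Fin 4) F => (w : M4 F)) hsC
    simp only [Units.val_mul] at this
    exact this.symm
  · -- the trace formula
    let T : M4 F := ∑ s : R, ((s : GL (Fin 4) F) : M4 F) * (y : M4 F) *
      ((((s : GL (Fin 4) F))⁻¹ : GL (Fin 4) F) : M4 F)
    have hTcomm : ∀ t ∈ R, T * (t : M4 F) = (t : M4 F) * T := by
      intro t ht
      have h1 : (t : M4 F) * T * ((t⁻¹ : GL (Fin 4) F) : M4 F) = T := by
        simp only [T, Finset.mul_sum, Finset.sum_mul]
        refine Fintype.sum_equiv (Equiv.mulLeft (⟨t, ht⟩ : R)) _ _ (fun s => ?_)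
        simp only [Equiv.coe_mulLeft, Subgroup.coe_mul, _root_.mul_inv_rev, Units.val_mul]
        simp only [mul_assoc]
      calc T * (t : M4 F) = ((t : M4 F) * T * ((t⁻¹ : GL (Fin 4) F) : M4 F)) * (t : M4 F) := by
            rw [h1]
        _ = (t : M4 F) * T := by
            rw [mul_assoc, ← Units.val_mul, inv_mul_cancel, Units.val_one, mul_one]
    obtain ⟨c, hc⟩ := hSC T hTcomm
    -- trace of T
    have htrT : T.trace = 64 * (y : M4 F).trace := by
      simp only [T, Matrix.trace_sum]
      have : ∀ s : R, (((s : GL (Fin 4) F) : M4 F) * (y : M4 F) *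
          ((((s : GL (Fin 4) F))⁻¹ : GL (Fin 4) F) : M4 F)).trace = (y : M4 F).trace := by
        intro s
        rw [Matrix.trace_mul_cycle, ← Units.val_mul, inv_mul_cancel, Units.val_one, one_mul]
      rw [Finset.sum_congr rfl (fun s _ => this s), Finset.sum_const, Finset.card_univ,
        ← Nat.card_eq_fintype_card, hcard, nsmul_eq_mul]
      norm_num
    have hc4 : 4 * c = 64 * (y : M4 F).trace := by
      rw [← htrT, hc, Matrix.trace_smul, Matrix.trace_one, Fintype.card_fin, smul_eq_mul]
      push_cast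
      ring
    -- second computation
    have hsum : (((y⁻¹ : GL (Fin 4) F) : M4 F) * T).trace = 4 * (Nat.card C : F) := by
      simp only [T, Finset.mul_sum, Matrix.trace_sum]
      have hterm : ∀ s : R, (((y⁻¹ : GL (Fin 4) F) : M4 F) * (((s : GL (Fin 4) F) : M4 F) *
          (y : M4 F) * ((((s : GL (Fin 4) F))⁻¹ : GL (Fin 4) F) : M4 F))).trace
          = if s ∈ C then (4 : F) else 0 := by
        intro s
        have hm : y⁻¹ * (s : GL (Fin 4) F) * y * (s : GL (Fin 4) F)⁻¹ ∈ R := by
          refine R.mul_mem ?_ (R.inv_mem s.2)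
          exact (Subgroup.mem_normalizer_iff''.1 hy _).1 s.2
        have hval : ((y⁻¹ : GL (Fin 4) F) : M4 F) * (((s : GL (Fin 4) F) : M4 F) *
            (y : M4 F) * ((((s : GL (Fin 4) F))⁻¹ : GL (Fin 4) F) : M4 F))
            = ((y⁻¹ * (s : GL (Fin 4) F) * y * (s : GL (Fin 4) F)⁻¹ : GL (Fin 4) F) : M4 F) := by
          simp only [Units.val_mul, mul_assoc]
        rw [hval]
        by_cases hs : s ∈ C
        · rw [if_pos hs]
          rw [hCmem] at hs
          have h1 : y⁻¹ * (s : GL (Fin 4) F) * y * (s : GL (Fin 4) F)⁻¹ = 1 := by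
            rw [mul_assoc y⁻¹, hs]
            group
          rw [h1, Units.val_one, Matrix.trace_one, Fintype.card_fin]
          norm_num
        · rw [if_neg hs]
          apply tr_zero_of_not_scal R hPM hSC h2 _ hm
          intro ε hε
          apply hs
          rw [hCmem]
          have hε4 := scal_pow_four R hPM _ hm ε hε
          have hεr := scal_pow_r y (s : GL (Fin 4) F) r z ε hz hε
          have hε1 : ε = 1 := by
            have hcop : Nat.Coprime r 4 := by
              have : Nat.Coprime r 2 := (Nat.coprime_primes hr Nat.prime_two).2 hr2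
              exact Nat.Coprime.pow_right 2 this
            have hd1 : orderOf ε ∣ r := orderOf_dvd_of_pow_eq_one hεr
            have hd2 : orderOf ε ∣ 4 := orderOf_dvd_of_pow_eq_one hε4
            have hd : orderOf ε ∣ 1 := by
              have := Nat.dvd_gcd hd1 hd2
              rwa [Nat.Coprime.gcd_eq_one hcop] at this
            exact orderOf_eq_one_iff.1 (Nat.dvd_one.1 hd)
          rw [hε1, one_smul] at hε
          have h1 : y⁻¹ * (s : GL (Fin 4) F) * y * (s : GL (Fin 4) F)⁻¹ = 1 :=
            Units.ext (by rw [hε, Units.val_one])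
          calc (s : GL (Fin 4) F) * y
              = y * (y⁻¹ * (s : GL (Fin 4) F) * y * (s : GL (Fin 4) F)⁻¹) * (s : GL (Fin 4) F) := by
                group
            _ = y * (s : GL (Fin 4) F) := by rw [h1, mul_one]
      rw [Finset.sum_congr rfl (fun s _ => hterm s), Finset.sum_ite, Finset.sum_const_zero,
        add_zero, Finset.sum_const, nsmul_eq_mul]
      have hcardC : (Finset.univ.filter (fun s : R => s ∈ C)).card = Nat.card C := by
        rw [Nat.card_eq_fintype_card, Fintype.card_subtype]
      rw [hcardC]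
      ring
    have hsum2 : (((y⁻¹ : GL (Fin 4) F) : M4 F) * T).trace
        = c * ((y⁻¹ : GL (Fin 4) F) : M4 F).trace := by
      rw [hc, Matrix.mul_smul, mul_one, Matrix.trace_smul, smul_eq_mul]
    have hfin : c * ((y⁻¹ : GL (Fin 4) F) : M4 F).trace = 4 * (Nat.card C : F) := by
      rw [← hsum2, hsum]
    have hc16 : c = 16 * (y : M4 F).trace := by
      apply mul_left_cancel₀ h4
      rw [hc4]
      ring
    rw [hc16] at hfin
    apply mul_left_cancel₀ h4
    linear_combination hfin

end Cfsg.Agent.Lib.Helper47.U64
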